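import Cfsg.Agent.H185.TI.Kap

/-!
# Row `PSL₃(4)` of S4819, S4820 : the sign lemma, final form (helper185)

`kap` : the conclusion `Kap` of `H155/TI/Defs.lean`, for `A = L` and for `A = N_L(P)`.
-/

set_option autoImplicit false

open scoped ComplexConjugate
open Cfsg Cfsg.Agent.Characters.Core

namespace Cfsg.Agent.H185.TI

open Cfsg.Agent.H155.TI (Over Pair Inv Kap Six)
open Cfsg.Agent.H41.TI (exists_ext exists_scal)

universe u

section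

variable {Γ : Type u} [Group Γ] [Finite Γ] {Z A K : Subgroup Γ}

/-- conjugate character of a normal subgroup -/
theorem isIrr_cj [hK : K.Normal] {χ : K → ℂ} (hχ : IsIrrCharacter K χ) (g : Γ) :
    IsIrrCharacter K (fun k => χ ⟨g * k * g⁻¹, hK.conj_mem _ k.2 g⟩) :=
  isIrr_comp (MulAut.conjNormal g : MulAut K).toMonoidHom (MulAut.conjNormal g : MulAut K).surjective hχ

/-- extensions to an overgroup of index 2 -/
theorem ext2 {W : Subgroup Γ} (hW : A ≤ W) (hidx : A.relIndex W = 2) {y : Γ} (hyW : y ∈ W) (hyA : y ∉ A)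
    (η : IrrCharacter A) (hη : ∀ a a' : A, (a' : Γ) = y * a * y⁻¹ → (η : A → ℂ) a' = (η : A → ℂ) a) :
    ∃ χ χ' : IrrCharacter W, (∀ a : A, (χ : W → ℂ) (Subgroup.inclusion hW a) = (η : A → ℂ) a) ∧
      (∀ a : A, (χ' : W → ℂ) (Subgroup.inclusion hW a) = (η : A → ℂ) a) ∧
      (∀ w : W, (w : Γ) ∉ A → (χ' : W → ℂ) w = -(χ : W → ℂ) w) ∧
      ∀ ψ : IrrCharacter W, (∀ a : A, (ψ : W → ℂ) (Subgroup.inclusion hW a) = (η : A → ℂ) a) → ψ = χ ∨ ψ = χ' := by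
  have hr : ∀ w : W, w ∈ (Subgroup.inclusion hW).range ↔ (w : Γ) ∈ A := by
    intro w
    rw [MonoidHom.mem_range]
    constructor
    · rintro ⟨a, rfl⟩
      exact a.2
    · intro h
      exact ⟨⟨w, h⟩, rfl⟩
  have hp := pair_triv (Subgroup.inclusion hW) (Subgroup.inclusion_injective hW) (by
    have h1 : (Subgroup.inclusion hW).range = A.subgroupOf W := by
      ext w
      rw [hr, Subgroup.mem_subgroupOf]
    rw [h1]
    exact hidx)
  obtain ⟨χ, χ', -, h1, h2, h3, h4⟩ := exists_ext hp (c := (⟨y, hyW⟩ : W)) (fun h => hyA ((hr _).1 h)) η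
    (fun a a' h => hη a a' (congrArg (fun w : W => (w : Γ)) h))
  exact ⟨χ, χ', h1, h2, fun w hw => h3 w (fun h => hw ((hr w).1 h)), h4⟩

/-- an extension lies over the same central character -/
theorem over_of_res {W : Subgroup Γ} (hZ : Z ≤ Subgroup.center Γ) (hZA : Z ≤ A) (hW : A ≤ W) {lam : Z →* ℂˣ}
    {χ : W → ℂ} (hχ : IsIrrCharacter W χ) {η : A → ℂ} (hη : IsIrrCharacter A η)
    (he : ∀ a : A, χ (Subgroup.inclusion hW a) = η a) (ho : Over (Subgroup.inclusion hZA) lam η) :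
    Over (Subgroup.inclusion (hZA.trans hW)) lam χ := by
  intro z w
  obtain ⟨ω, -, h2⟩ := exists_scal hχ (s := Subgroup.inclusion (hZA.trans hW) z)
    (fun g => Subtype.ext ((Subgroup.mem_center_iff.1 (hZ z.2) g).symm))
  rw [h2]
  have h3 := h2 1
  rw [mul_one] at h3
  have h4 := ho z 1
  rw [mul_one, ← he, ← he] at h4
  have h5 : χ (Subgroup.inclusion hW (Subgroup.inclusion hZA z)) = χ (Subgroup.inclusion (hZA.trans hW) z) := rfl
  rw [h5, h3, map_one] at h4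
  have h6 : χ 1 ≠ 0 := isIrr_apply_one_ne_zero hχ
  rw [mul_right_cancel₀ h6 h4]

theorem over_res {W : Subgroup Γ} (hZA : Z ≤ A) (hW : A ≤ W) {lam : Z →* ℂˣ}
    {χ : W → ℂ} (ho : Over (Subgroup.inclusion (hZA.trans hW)) lam χ) :
    Over (Subgroup.inclusion hZA) lam (fun a : A => χ (Subgroup.inclusion hW a)) :=
  fun z w => ho z (Subgroup.inclusion hW w)

/-- the conjugate of a member over `lam` -/
theorem over_cj [hA : A.Normal] (hZ : Z ≤ Subgroup.center Γ) (hZA : Z ≤ A) {lam : Z →* ℂˣ} {η : A → ℂ}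
    (ho : Over (Subgroup.inclusion hZA) lam η) (g : Γ) :
    Over (Subgroup.inclusion hZA) lam (fun k => η ⟨g * k * g⁻¹, hA.conj_mem _ k.2 g⟩) := by
  intro z w
  have h1 := ho z ⟨g * w * g⁻¹, hA.conj_mem _ w.2 g⟩
  refine Eq.trans (congrArg η (Subtype.ext ?_)) h1
  show g * (z * w) * g⁻¹ = z * (g * w * g⁻¹)
  have h2 := Subgroup.mem_center_iff.1 (hZ z.2) g
  rw [← mul_assoc, h2]
  group

theorem sq_cases {x : ℂ} {w : ℤ} (h : x = w) (hw : |w| ≤ 2) (h0 : x ≠ 0) :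
    (x = 1 ∨ x = -1) ∨ (x = 2 ∨ x = -2) := by
  have h1 := abs_le.1 hw
  have h2 : w ≠ 0 := by
    rintro rfl
    exact h0 (by rw [h]; simp)
  have h3 : w = 1 ∨ w = -1 ∨ w = 2 ∨ w = -2 := by omega
  rcases h3 with h3 | h3 | h3 | h3 <;> subst h3 <;> rw [h] <;> norm_num

theorem sq_four {x : ℂ} : x ^ 2 = 4 ↔ (x = 2 ∨ x = -2) := by
  constructor
  · intro h
    have h1 : (x - 2) * (x + 2) = 0 := by linear_combination h
    rcases mul_eq_zero.1 h1 with h2 | h2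
    · exact Or.inl (sub_eq_zero.1 h2)
    · exact Or.inr (eq_neg_of_add_eq_zero_left h2)
  · rintro (h | h) <;> rw [h] <;> norm_num

theorem sq_one {x : ℂ} (h : x ^ 2 = 1) : x = 1 ∨ x = -1 := by
  have h1 : (x - 1) * (x + 1) = 0 := by linear_combination h
  rcases mul_eq_zero.1 h1 with h2 | h2
  · exact Or.inl (sub_eq_zero.1 h2)
  · exact Or.inr (eq_neg_of_add_eq_zero_left h2)

/-- the member of value `±2` is unique -/
theorem two_uniq (hZA : Z ≤ A) {lam : Z →* ℂˣ} {x : A} (six : Six (Subgroup.inclusion hZA) lam x)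
    {η η' : IrrCharacter A} (h : Over (Subgroup.inclusion hZA) lam (η : A → ℂ))
    (h' : Over (Subgroup.inclusion hZA) lam (η' : A → ℂ)) (h2 : (η : A → ℂ) x ^ 2 = 4) (h2' : (η' : A → ℂ) x ^ 2 = 4) :
    η = η' := by
  have h3 := six.one
  rw [Nat.card_eq_one_iff_unique] at h3
  obtain ⟨h3, -⟩ := h3
  have h4 := h3.elim ⟨η, h, sq_four.1 h2⟩ ⟨η', h', sq_four.1 h2'⟩
  exact congrArg Subtype.val h4

/-- **THE SIGN LEMMA** -/
theorem kap {W1 W2 : Subgroup Γ} [hA : A.Normal] (hZA : Z ≤ A) (hAK : A ≤ K) (lam : Z →* ℂˣ)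
    (hZ : Z ≤ Subgroup.center Γ) (hK2 : K.index = 2) (hA2 : A.relIndex K = 2) {x c r : Γ} (hx3 : x ^ 3 = 1) (hxA : x ∈ A)
    (hcK : c ∈ K) (hcA : c ∉ A) (hrK : r ∉ K) (hcc : c * c ∈ Z) (hrr : r * r ∈ Z)
    (hcr : ∃ z : Z, r * c * r⁻¹ = z * c ∧ lam z ≠ 1) (hcx : c * x = x * c) (hrx : r * x = x * r)
    (h1 : A ≤ W1) (i1 : A.relIndex W1 = 2) (r1 : r ∈ W1) (h2 : A ≤ W2) (i2 : A.relIndex W2 = 2) (r2 : c * r ∈ W2)
    (six : Six (Subgroup.inclusion hZA) lam ⟨x, hxA⟩)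
    (hcard : Nat.card {η : IrrCharacter A // Over (Subgroup.inclusion hZA) lam (η : A → ℂ) ∧ (η : A → ℂ) ⟨x, hxA⟩ ≠ 0 ∧
      ∀ a a' : A, (a' : Γ) = c * a * c⁻¹ → (η : A → ℂ) a' = (η : A → ℂ) a} = 2)
    (V0 : ∀ χ : IrrCharacter K, Over (Subgroup.inclusion (hZA.trans hAK)) lam (χ : K → ℂ) →
      (χ : K → ℂ) ⟨x, hAK hxA⟩ ^ 2 = 4 → (χ : K → ℂ) ⟨x * c, K.mul_mem (hAK hxA) hcK⟩ = 0)
    (V0' : ∀ χ : IrrCharacter K, Over (Subgroup.inclusion (hZA.trans hAK)) lam (χ : K → ℂ) →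
      IsIrrCharacter A (fun a => (χ : K → ℂ) (Subgroup.inclusion hAK a)) →
      (χ : K → ℂ) ⟨x, hAK hxA⟩ ^ 2 = 1 → (χ : K → ℂ) ⟨x * c, K.mul_mem (hAK hxA) hcK⟩ ≠ 0)
    (V1 : ∀ χ : IrrCharacter W1, Over (Subgroup.inclusion (hZA.trans h1)) lam (χ : W1 → ℂ) →
      (χ : W1 → ℂ) ⟨x, h1 hxA⟩ ^ 2 = 4 → (χ : W1 → ℂ) ⟨x * r, W1.mul_mem (h1 hxA) r1⟩ = 0)
    (V2 : ∀ χ : IrrCharacter W2, Over (Subgroup.inclusion (hZA.trans h2)) lam (χ : W2 → ℂ) →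
      (χ : W2 → ℂ) ⟨x, h2 hxA⟩ ^ 2 = 4 → (χ : W2 → ℂ) ⟨x * (c * r), W2.mul_mem (h2 hxA) r2⟩ = 0) :
    Kap hZA hAK lam x r := by
  classical
  have hKn : K.Normal := Subgroup.normal_of_index_eq_two hK2
  have hrA : r ∉ A := fun h => hrK (hAK h)
  have hcrA : c * r ∉ A := fun h => hrK ((Subgroup.mul_mem_cancel_left K hcK).1 (hAK h))
  -- conjugation fixes the value at `x`
  have hval : ∀ (g : Γ), g * x = x * g → ∀ (η : A → ℂ),
      η ⟨g * (⟨x, hxA⟩ : A) * g⁻¹, hA.conj_mem _ hxA g⟩ = η ⟨x, hxA⟩ := by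
    intro g hg η
    refine congrArg η (Subtype.ext ?_)
    show g * x * g⁻¹ = x
    rw [hg, mul_inv_cancel_right]
  -- the member of value `±2` is invariant under everything commuting with `x`
  have hsinv : ∀ (s : IrrCharacter A), Over (Subgroup.inclusion hZA) lam (s : A → ℂ) → (s : A → ℂ) ⟨x, hxA⟩ ^ 2 = 4 →
      ∀ g : Γ, g * x = x * g → ∀ a a' : A, (a' : Γ) = g * a * g⁻¹ → (s : A → ℂ) a' = (s : A → ℂ) a := by
    intro s hs hs2 g hg a a' haa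
    have e1 := two_uniq hZA six (η := ⟨_, isIrr_cj s.2 g⟩) (η' := s) (over_cj hZ hZA hs g) hs (by
      show ((s : A → ℂ) ⟨g * (⟨x, hxA⟩ : A) * g⁻¹, _⟩) ^ 2 = 4
      rw [hval g hg (s : A → ℂ)]
      exact hs2) hs2
    have e2 := congrArg (fun f : IrrCharacter A => (f : A → ℂ) a) e1
    have e3 : (s : A → ℂ) ⟨g * a * g⁻¹, hA.conj_mem _ a.2 g⟩ = (s : A → ℂ) a := e2
    rw [← e3]
    exact congrArg _ (Subtype.ext haa)
  -- the second c-invariant member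
  obtain ⟨z, hz, hz1⟩ := hcr
  intro χ hχo hχi hχ4 k k' hkk
  set s : IrrCharacter A := ⟨_, hχi⟩ with hs
  have hso : Over (Subgroup.inclusion hZA) lam (s : A → ℂ) := over_res hZA hAK hχo
  have hs2 : (s : A → ℂ) ⟨x, hxA⟩ ^ 2 = 4 := hχ4 _ rfl
  have hsx : (s : A → ℂ) ⟨x, hxA⟩ ≠ 0 := by
    intro h
    rw [h] at hs2
    norm_num at hs2
  obtain ⟨η1, ho1, hx1, hc1, hne1, hu1⟩ : ∃ η1 : IrrCharacter A, Over (Subgroup.inclusion hZA) lam (η1 : A → ℂ) ∧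
      (η1 : A → ℂ) ⟨x, hxA⟩ ≠ 0 ∧ (∀ a a' : A, (a' : Γ) = c * a * c⁻¹ → (η1 : A → ℂ) a' = (η1 : A → ℂ) a) ∧ η1 ≠ s ∧
      ∀ η : IrrCharacter A, Over (Subgroup.inclusion hZA) lam (η : A → ℂ) → (η : A → ℂ) ⟨x, hxA⟩ ≠ 0 →
        (∀ a a' : A, (a' : Γ) = c * a * c⁻¹ → (η : A → ℂ) a' = (η : A → ℂ) a) → η = s ∨ η = η1 := by
    obtain ⟨a, b, hab, hall⟩ := Nat.card_eq_two_iff.1 hcard
    have hsm : (⟨s, hso, hsx, hsinv s hso hs2 c hcx⟩ : {η : IrrCharacter A //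
      Over (Subgroup.inclusion hZA) lam (η : A → ℂ) ∧ (η : A → ℂ) ⟨x, hxA⟩ ≠ 0 ∧
      ∀ a a' : A, (a' : Γ) = c * a * c⁻¹ → (η : A → ℂ) a' = (η : A → ℂ) a}) ∈ ({a, b} : Set _) := by
      rw [hall]; trivial
    rcases hsm with h | h
    · have h3 : s = a.1 := congrArg Subtype.val h
      refine ⟨b.1, b.2.1, b.2.2.1, b.2.2.2, ?_, ?_⟩
      · rw [h3]
        exact fun h => hab (Subtype.ext h.symm)
      · intro η k1 k2 k3
        have h4 : (⟨η, k1, k2, k3⟩ : {η : IrrCharacter A //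
          Over (Subgroup.inclusion hZA) lam (η : A → ℂ) ∧ (η : A → ℂ) ⟨x, hxA⟩ ≠ 0 ∧
          ∀ a a' : A, (a' : Γ) = c * a * c⁻¹ → (η : A → ℂ) a' = (η : A → ℂ) a}) ∈ ({a, b} : Set _) := by
          rw [hall]; trivial
        rcases h4 with h4 | h4
        · left; rw [h3]; exact congrArg Subtype.val h4
        · right; exact congrArg Subtype.val h4
    · have h3 : s = b.1 := congrArg Subtype.val h
      refine ⟨a.1, a.2.1, a.2.2.1, a.2.2.2, ?_, ?_⟩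
      · rw [h3]
        exact fun h => hab (Subtype.ext h)
      · intro η k1 k2 k3
        have h4 : (⟨η, k1, k2, k3⟩ : {η : IrrCharacter A //
          Over (Subgroup.inclusion hZA) lam (η : A → ℂ) ∧ (η : A → ℂ) ⟨x, hxA⟩ ≠ 0 ∧
          ∀ a a' : A, (a' : Γ) = c * a * c⁻¹ → (η : A → ℂ) a' = (η : A → ℂ) a}) ∈ ({a, b} : Set _) := by
          rw [hall]; trivial
        rcases h4 with h4 | h4
        · right; exact congrArg Subtype.val h4
        · left; rw [h3]; exact congrArg Subtype.val h4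
  have hv1 : (η1 : A → ℂ) ⟨x, hxA⟩ = 1 ∨ (η1 : A → ℂ) ⟨x, hxA⟩ = -1 := by
    obtain ⟨w, hw, hw2⟩ := six.int η1 ho1
    rcases sq_cases hw hw2 hx1 with h | h
    · exact h
    · exact absurd (two_uniq hZA six ho1 hso (sq_four.2 h) hs2) hne1
  -- `η1` is invariant under `r`
  have hr1 : ∀ a a' : A, (a' : Γ) = r * a * r⁻¹ → (η1 : A → ℂ) a' = (η1 : A → ℂ) a := by
    have e1 := hu1 ⟨_, isIrr_cj η1.2 r⟩ (over_cj hZ hZA ho1 r) (by
      show (η1 : A → ℂ) ⟨r * (⟨x, hxA⟩ : A) * r⁻¹, _⟩ ≠ 0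
      rw [hval r hrx (η1 : A → ℂ)]
      exact hx1) (by
      intro a a' haa
      show (η1 : A → ℂ) ⟨r * a' * r⁻¹, _⟩ = (η1 : A → ℂ) ⟨r * a * r⁻¹, _⟩
      apply hc1
      show r * (a' : Γ) * r⁻¹ = c * (r * a * r⁻¹) * c⁻¹
      have hzc := Subgroup.mem_center_iff.1 (hZ z.2)
      have e3 : r * c = z * c * r := by rw [← hz, inv_mul_cancel_right]
      have e4 : c⁻¹ * r⁻¹ = r⁻¹ * (c⁻¹ * (z : Γ)⁻¹) := by
        have := congrArg (fun t => t⁻¹) e3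
        simpa [mul_inv_rev, mul_assoc] using this
      calc r * (a' : Γ) * r⁻¹ = (r * c) * a * (c⁻¹ * r⁻¹) := by rw [haa]; group
        _ = z * (c * (r * a * r⁻¹) * c⁻¹) * (z : Γ)⁻¹ := by rw [e3, e4]; group
        _ = c * (r * a * r⁻¹) * c⁻¹ := by rw [← hzc, mul_inv_cancel_right])
    rcases e1 with e1 | e1
    · exfalso
      have e2 := congrArg (fun f : IrrCharacter A => (f : A → ℂ) ⟨x, hxA⟩) e1
      have e3 : (η1 : A → ℂ) ⟨r * (⟨x, hxA⟩ : A) * r⁻¹, hA.conj_mem _ hxA r⟩ = (s : A → ℂ) ⟨x, hxA⟩ := e2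
      rw [hval r hrx (η1 : A → ℂ)] at e3
      rw [← e3] at hs2
      rcases hv1 with h | h <;> rw [h] at hs2 <;> norm_num at hs2
    · intro a a' haa
      have e2 := congrArg (fun f : IrrCharacter A => (f : A → ℂ) a) e1
      have e3 : (η1 : A → ℂ) ⟨r * a * r⁻¹, hA.conj_mem _ a.2 r⟩ = (η1 : A → ℂ) a := e2
      rw [← e3]
      exact congrArg _ (Subtype.ext haa)
  -- invariance of `η1` under `c r`
  have hcr1 : ∀ a a' : A, (a' : Γ) = (c * r) * a * (c * r)⁻¹ → (η1 : A → ℂ) a' = (η1 : A → ℂ) a := by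
    intro a a' haa
    rw [← hr1 a ⟨r * a * r⁻¹, hA.conj_mem _ a.2 r⟩ rfl]
    apply hc1
    rw [haa]
    group
  have hcrx : c * r * x = x * (c * r) := by rw [mul_assoc, hrx, ← mul_assoc, hcx, mul_assoc]
  -- extensions to `K`
  obtain ⟨χ1, χ1', he1, he1', hs1, hu1'⟩ := ext2 hAK hA2 hcK hcA η1 hc1
  obtain ⟨χs, χs', hes, hes', hss, hus⟩ := ext2 hAK hA2 hcK hcA s (hsinv s hso hs2 c hcx)
  have hχ1o : Over (Subgroup.inclusion (hZA.trans hAK)) lam (χ1 : K → ℂ) := over_of_res hZ hZA hAK χ1.2 η1.2 he1 ho1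
  -- the two dichotomies
  have hdich : ∀ (η : IrrCharacter A) (ψ ψ' : IrrCharacter K),
      (∀ a a' : A, (a' : Γ) = r * a * r⁻¹ → (η : A → ℂ) a' = (η : A → ℂ) a) →
      (∀ a : A, (ψ : K → ℂ) (Subgroup.inclusion hAK a) = (η : A → ℂ) a) →
      (∀ w : K, (w : Γ) ∉ A → (ψ' : K → ℂ) w = -(ψ : K → ℂ) w) →
      (∀ φ : IrrCharacter K, (∀ a : A, (φ : K → ℂ) (Subgroup.inclusion hAK a) = (η : A → ℂ) a) → φ = ψ ∨ φ = ψ') →
      ∀ φ : IrrCharacter K, (∀ a : A, (φ : K → ℂ) (Subgroup.inclusion hAK a) = (η : A → ℂ) a) →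
      (∀ k k' : K, (k' : Γ) = r * k * r⁻¹ → (φ : K → ℂ) k' = (φ : K → ℂ) k) ∨
      (∀ k k' : K, (k' : Γ) = r * k * r⁻¹ → ((k : Γ) ∈ A → (φ : K → ℂ) k' = (φ : K → ℂ) k) ∧
        ((k : Γ) ∉ A → (φ : K → ℂ) k' = -(φ : K → ℂ) k)) := by
    intro η ψ ψ' hinv hr0 hsg hu φ hφ
    have hφr : ∀ a : A, (φ : K → ℂ) ⟨r * (Subgroup.inclusion hAK a : K) * r⁻¹, hKn.conj_mem _ (hAK a.2) r⟩ =
        (η : A → ℂ) a := by
      intro a
      have e1 := hφ ⟨r * a * r⁻¹, hA.conj_mem _ a.2 r⟩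
      rw [hinv a _ rfl] at e1
      exact e1
    have e1 := hu φ hφ
    have e2 := hu ⟨_, isIrr_cj φ.2 r⟩ hφr
    have e3 : ∀ k k' : K, (k' : Γ) = r * k * r⁻¹ → (φ : K → ℂ) k' = (φ : K → ℂ) ⟨r * k * r⁻¹, hKn.conj_mem _ k.2 r⟩ :=
      fun k k' h => congrArg _ (Subtype.ext h)
    by_cases heq : (⟨_, isIrr_cj φ.2 r⟩ : IrrCharacter K) = φ
    · left
      intro k k' hk
      rw [e3 k k' hk]
      exact congrArg (fun f : IrrCharacter K => (f : K → ℂ) k) heq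
    · right
      intro k k' hk
      constructor
      · intro hkA
        rw [e3 k k' hk]
        have e4 := hφr ⟨k, hkA⟩
        have e5 := hφ ⟨k, hkA⟩
        exact e4.trans e5.symm
      · intro hkA
        rw [e3 k k' hk]
        rcases e1 with e1 | e1 <;> rcases e2 with e2 | e2
        · exact absurd (e2.trans e1.symm) heq
        · have e4 := congrArg (fun f : IrrCharacter K => (f : K → ℂ) k) e2
          have e5 := congrArg (fun f : IrrCharacter K => (f : K → ℂ) k) e1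
          have e6 := hsg k hkA
          exact e4.trans (e6.trans (congrArg (fun t => -t) e5.symm))
        · have e4 := congrArg (fun f : IrrCharacter K => (f : K → ℂ) k) e2
          have e5 := congrArg (fun f : IrrCharacter K => (f : K → ℂ) k) e1
          have e6 := hsg k hkA
          have e7 : (φ : K → ℂ) k = -(ψ : K → ℂ) k := e5.trans e6
          have e8 : -(φ : K → ℂ) k = (ψ : K → ℂ) k := by rw [e7, neg_neg]
          exact e4.trans e8.symm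
        · exact absurd (e2.trans e1.symm) heq
  -- `χ1` is moved
  have hm1 : ∀ k k' : K, (k' : Γ) = r * k * r⁻¹ → ((k : Γ) ∈ A → (χ1 : K → ℂ) k' = (χ1 : K → ℂ) k) ∧
      ((k : Γ) ∉ A → (χ1 : K → ℂ) k' = -(χ1 : K → ℂ) k) := by
    rcases hdich η1 χ1 χ1' hr1 he1 hs1 hu1' χ1 he1 with h | h
    · exfalso
      have hχx : (χ1 : K → ℂ) ⟨x, hAK hxA⟩ = (η1 : A → ℂ) ⟨x, hxA⟩ := he1 ⟨x, hxA⟩
      have hne := V0' χ1 hχ1o (by rw [funext he1]; exact η1.2) (by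
        rw [hχx]
        rcases hv1 with h | h <;> rw [h] <;> norm_num)
      have hzK : (z : Γ) * (x * c) ∈ K := K.mul_mem (hAK (hZA z.2)) (K.mul_mem (hAK hxA) hcK)
      have e1 := h ⟨x * c, K.mul_mem (hAK hxA) hcK⟩ ⟨z * (x * c), hzK⟩ (by
        show (z : Γ) * (x * c) = r * (x * c) * r⁻¹
        have hzc := Subgroup.mem_center_iff.1 (hZ z.2)
        calc (z : Γ) * (x * c) = x * (z * c) := by rw [← mul_assoc, ← hzc, mul_assoc]
          _ = x * (r * c * r⁻¹) := by rw [hz]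
          _ = (x * r) * c * r⁻¹ := by group
          _ = r * (x * c) * r⁻¹ := by rw [← hrx]; group)
      have e2 : (χ1 : K → ℂ) ⟨z * (x * c), hzK⟩ = (lam z : ℂ) * (χ1 : K → ℂ) ⟨x * c, K.mul_mem (hAK hxA) hcK⟩ :=
        hχ1o z ⟨x * c, K.mul_mem (hAK hxA) hcK⟩
      rw [e2] at e1
      have e3 : (lam z : ℂ) = 1 := mul_right_cancel₀ hne (e1.trans (one_mul _).symm)
      exact hz1 (Units.ext e3)
    · exact h
  -- `χ` is not moved
  have hs0 : ∀ a : A, (χ : K → ℂ) (Subgroup.inclusion hAK a) = (s : A → ℂ) a := fun a => rfl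
  rcases hdich s χs χs' (hsinv s hso hs2 r hrx) hes hss hus χ hs0 with h | h
  · exact h k k' hkk
  · exfalso
    obtain ⟨α1, -, ha1, -, -, -⟩ := ext2 h1 i1 r1 hrA s (hsinv s hso hs2 r hrx)
    obtain ⟨β1, -, hb1, -, -, -⟩ := ext2 h1 i1 r1 hrA η1 hr1
    obtain ⟨α2, -, ha2, -, -, -⟩ := ext2 h2 i2 r2 hcrA s (hsinv s hso hs2 (c * r) hcrx)
    obtain ⟨β2, -, hb2, -, -, -⟩ := ext2 h2 i2 r2 hcrA η1 hcr1
    have hχx : (χ1 : K → ℂ) ⟨x, hAK hxA⟩ = (η1 : A → ℂ) ⟨x, hxA⟩ := he1 ⟨x, hxA⟩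
    refine sgn_aux hZA hAK lam hZ hK2 hx3 hxA hcK hcA hrK hcc hrr ?_ hcx hrx h1 i1 r1 h2 i2 r2 (α := χ) (β := χ1)
      hχo hχ1o hχi (by rw [funext he1]; exact η1.2) h hm1 ?_ (V0 χ hχo hs2) ?_ ?_
    · refine ⟨(z : Γ)⁻¹, Z.inv_mem z.2, ?_⟩
      have e3 : r * c = z * c * r := by rw [← hz, inv_mul_cancel_right]
      rw [e3]
      group
    · have hsx' : (χ : K → ℂ) ⟨x, hAK hxA⟩ = 2 ∨ (χ : K → ℂ) ⟨x, hAK hxA⟩ = -2 := sq_four.1 hs2
      rcases hsx' with e | e <;> rcases hv1 with e' | e' <;> rw [hχx, e, e'] <;> norm_num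
    · refine ⟨α1, β1, fun a => ha1 a, fun a => (hb1 a).trans (he1 a).symm, ?_⟩
      refine V1 α1 (over_of_res hZ hZA h1 α1.2 s.2 ha1 hso) ?_
      have e : (α1 : W1 → ℂ) ⟨x, h1 hxA⟩ = (s : A → ℂ) ⟨x, hxA⟩ := ha1 ⟨x, hxA⟩
      rw [e]; exact hs2
    · refine ⟨α2, β2, fun a => ha2 a, fun a => (hb2 a).trans (he1 a).symm, ?_⟩
      refine V2 α2 (over_of_res hZ hZA h2 α2.2 s.2 ha2 hso) ?_
      have e : (α2 : W2 → ℂ) ⟨x, h2 hxA⟩ = (s : A → ℂ) ⟨x, hxA⟩ := ha2 ⟨x, hxA⟩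
      rw [e]; exact hs2

end

end Cfsg.Agent.H185.TI
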